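import Cfsg.Agent.H21.PG.Types

/-!
# Block G of S4884, the case `q ∣ r + 1` of the unitary groups (helper886)

* `ti_le` : the Witt index of a form with `m` hyperbolic pairs and anisotropic complement is at most `m`;
* `PF.top` : the top of a flag;
* `Rm` : the pseudo-reflections of an anisotropic vector;
* `caseU` : an element of determinant 1 of order `q` without stable maximal totally isotropic subspaces.
-/

set_option autoImplicit false
set_option linter.unusedSectionVars false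

namespace Cfsg.Agent.H886.PG

open Cfsg.Agent.TitsThree.Siegel Module Submodule Cfsg.Agent.H439.CC Cfsg.Agent.H21.PG

section

variable {F : Type*} [Field F] {V : Type*} [AddCommGroup V] [Module F V] {H : HForm F V}

/-- `v ↦ h(v, w)` -/
def lf (H : HForm F V) (w : V) : V →ₗ[F] F where
  toFun v := H.h v w
  map_add' a b := H.add_left a b w
  map_smul' c a := by rw [H.smul_left, RingHom.id_apply, smul_eq_mul]

theorem lf_apply (v w : V) : lf H w v = H.h v w := rfl

/-- the functional of the pseudo-reflection -/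
def fn (H : HForm F V) (e : V) (l : F) : Module.Dual F V := ((l - 1) * (H.h e e)⁻¹) • lf H e

theorem fn_apply (e : V) (l : F) (v : V) : fn H e l v = (l - 1) * (H.h e e)⁻¹ * H.h v e := rfl

theorem fn_self {e : V} (he : H.h e e ≠ 0) (l : F) : fn H e l e = l - 1 := by
  rw [fn_apply, mul_assoc, inv_mul_cancel₀ he, mul_one]

theorem isUnit_fn {e : V} (he : H.h e e ≠ 0) (l : Fˣ) : IsUnit (1 + fn H e (l : F) e) := by
  rw [fn_self he, add_sub_cancel]
  exact l.isUnit

/-- the pseudo-reflections of an anisotropic vector -/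
noncomputable def Rm {e : V} (he : H.h e e ≠ 0) : Fˣ →* (V ≃ₗ[F] V) where
  toFun l := LinearEquiv.dilatransvection (isUnit_fn he l)
  map_one' := by
    ext v
    rw [LinearEquiv.dilatransvection.apply, fn_apply, Units.val_one, sub_self, zero_mul, zero_mul, zero_smul,
      add_zero]
    rfl
  map_mul' l l' := by
    ext v
    rw [LinearEquiv.mul_apply, LinearEquiv.dilatransvection.apply, LinearEquiv.dilatransvection.apply,
      LinearEquiv.dilatransvection.apply, map_add, map_smul, fn_self he, smul_eq_mul, add_assoc, ← add_smul]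
    congr 2
    rw [fn_apply, fn_apply, fn_apply, Units.val_mul]
    ring

theorem Rm_apply {e : V} (he : H.h e e ≠ 0) (l : Fˣ) (v : V) :
    Rm he l v = v + ((l - 1 : F) * (H.h e e)⁻¹ * H.h v e) • e := LinearEquiv.dilatransvection.apply

theorem isom_Rm {e : V} (he : H.h e e ≠ 0) {l : Fˣ} (hl : H.σ l * l = 1) : Isom H (Rm he l) := by
  intro v w
  rw [Rm_apply, Rm_apply, H.add_left, H.add_right, H.add_right, H.smul_left, H.smul_left, H.smul_right, H.smul_right,
    map_mul, map_mul, map_sub, map_one, map_inv₀]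
  have h1 : H.h e e = H.ε * H.σ (H.h e e) := H.swap e e
  have h2 : H.h e w = H.ε * H.σ (H.h w e) := H.swap w e
  have h3 : H.σ (H.h e e) ≠ 0 := by
    intro h4
    rw [h4, mul_zero] at h1
    exact he h1
  have hε := H.ε_ne
  have h5 : (H.h e e)⁻¹ = H.ε⁻¹ * (H.σ (H.h e e))⁻¹ := by rw [← mul_inv, ← h1]
  have h6 : H.h e e * (H.h e e)⁻¹ = 1 := mul_inv_cancel₀ he
  have h7 : H.σ (l : F) = (l : F)⁻¹ := eq_inv_of_mul_eq_one_left hl
  rw [h2, h7]
  have hl0 : (l : F) ≠ 0 := l.ne_zero
  have h8 : (H.σ (H.h e e))⁻¹ = H.ε * (H.h e e)⁻¹ := by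
    rw [h5, ← mul_assoc, mul_inv_cancel₀ hε, one_mul]
  rw [h8]
  field_simp
  ring

theorem commute_Rm {e e' : V} (he : H.h e e ≠ 0) (he' : H.h e' e' ≠ 0) (h0 : H.h e e' = 0) (l l' : Fˣ) :
    Commute (Rm he l) (Rm he' l') := by
  have h0' : H.h e' e = 0 := H.orth_symm h0
  change Rm he l * Rm he' l' = Rm he' l' * Rm he l
  ext v
  rw [LinearEquiv.mul_apply, LinearEquiv.mul_apply, Rm_apply he, Rm_apply he', Rm_apply he', Rm_apply he, H.add_left,
    H.add_left, H.smul_left, H.smul_left, h0, h0']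
  module

theorem det_Rm {e : V} [FiniteDimensional F V] (he : H.h e e ≠ 0) (l : Fˣ) :
    LinearMap.det (Rm he l : V →ₗ[F] V) = l := by
  have h1 : (Rm he l : V →ₗ[F] V) = LinearMap.transvection (fn H e l) e :=
    LinearEquiv.dilatransvection.coe_toLinearMap
  rw [h1, LinearMap.transvection.det, fn_self he, add_sub_cancel]

/-- the top of a flag -/
theorem PF_top {Adm : Submodule F V → Prop} {X : Set (V ≃ₗ[F] V)} :
    ∀ (ds : List ℕ) (A : Submodule F V), PF Adm X ds A → Adm A → (∀ x ∈ X, A.map (x : V →ₗ[F] V) = A) →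
      ∃ W : Submodule F V, A ≤ W ∧ Adm W ∧ (∀ x ∈ X, W.map (x : V →ₗ[F] V) = W) ∧
        finrank F W = finrank F A + ds.sum
  | [], A, _, h1, h2 => ⟨A, le_rfl, h1, h2, by rw [List.sum_nil, add_zero]⟩
  | k :: ds, A, ⟨B, h1, h2, h3, h4, _, h6⟩, _, _ => by
    obtain ⟨W, a1, a2, a3, a4⟩ := PF_top ds B h6 h2 h3
    exact ⟨W, h1.le.trans a1, a2, a3, by rw [a4, h4, List.sum_cons, add_assoc]⟩

theorem sum_dig (m : ℕ) : (dig m).sum = m := Nat.sum_map_two_pow_bitIndices m

end

section Fin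

variable {F : Type*} [Field F] [Finite F] {V : Type*} [AddCommGroup V] [Module F V] [FiniteDimensional F V]
  {H : HForm F V}

/-- **the Witt index** -/
theorem ti_le {m : ℕ} (h : Hyp H m) {U : Submodule F V} (hU : TI H U) : finrank F U ≤ m := by
  classical
  -- the standard subspace
  set U₀ : Submodule F V := span F (Set.range h.u) with hU₀
  have hwu : ∀ i j, H.h (h.u i) (h.w j) = if i = j then 1 else 0 := h.uw
  have hli : LinearIndependent F h.u := by
    rw [Fintype.linearIndependent_iff]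
    intro c hc i
    have h1 := congrArg (lf H (h.w i)) hc
    rw [map_sum, map_zero] at h1
    simp only [map_smul, lf_apply, hwu, smul_eq_mul, mul_ite, mul_one, mul_zero] at h1
    rwa [Finset.sum_ite_eq' Finset.univ i, if_pos (Finset.mem_univ i)] at h1
  have hdim : finrank F U₀ = m := by
    rw [hU₀, finrank_span_eq_card hli, Fintype.card_fin]
  have hperp : ∀ v : V, (∀ i, H.h v (h.u i) = 0) → ∀ a ∈ U₀, H.h v a = 0 := by
    intro v hv a ha
    refine H.orth_symm ?_
    have h1 : U₀ ≤ LinearMap.ker (lf H v) := by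
      rw [hU₀, span_le]
      rintro _ ⟨i, rfl⟩
      exact H.orth_symm (hv i)
    exact h1 ha
  have hTI : TI H U₀ := by
    intro a ha
    refine hperp a fun i => ?_
    exact H.orth_symm (hperp (h.u i) (fun j => h.uu i j) a ha)
  by_contra hcon
  obtain ⟨v, hv, hvp, hvn⟩ := exists_isotropic hTI hU (by rw [hdim]; omega)
  apply hvn
  -- project to the complement
  have hvu : ∀ i, H.h v (h.u i) = 0 := fun i => hvp _ (subset_span ⟨i, rfl⟩)
  set s : V := ∑ i, H.h v (h.w i) • h.u i with hs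
  have hsU : s ∈ U₀ := sum_mem fun i _ => smul_mem _ _ (subset_span ⟨i, rfl⟩)
  have h1 : ∀ j, H.h s (h.w j) = H.h v (h.w j) := by
    intro j
    rw [← lf_apply s, hs, map_sum]
    simp only [map_smul, lf_apply, hwu, smul_eq_mul, mul_ite, mul_one, mul_zero]
    rw [Finset.sum_ite_eq' Finset.univ j, if_pos (Finset.mem_univ j)]
  have h2 : v - s = 0 := by
    apply h.ani
    · intro i
      refine H.orth_symm ?_
      rw [H.sub_left, hvu i, hTI s hsU _ (subset_span ⟨i, rfl⟩), sub_zero]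
    · intro i
      refine H.orth_symm ?_
      rw [H.sub_left, h1, sub_self]
    · have h3 : H.h v s = 0 := hvp s hsU
      rw [H.sub_left, H.sub_right, H.sub_right, h3, H.orth_symm h3, hTI s hsU s hsU, hU v hv v hv]
      ring
  rw [sub_eq_zero.1 h2]
  exact hsU

/-- **CaseU** -/
theorem caseU_aux {q m : ℕ} [hqp : Fact q.Prime] (h : Hyp H m) (hq2 : q ≠ 2) (hm : 1 ≤ m) (h2 : (2 : F) ≠ 0)
    {z : F} (hz : z ^ q = 1) (hz1 : z ≠ 1) (hzz : H.σ z * z = 1) :
    ∃ x : V ≃ₗ[F] V, Isom H x ∧ x ^ q = 1 ∧ LinearMap.det (x : V →ₗ[F] V) = 1 ∧ ¬ PF (TI H) {x} (dig m) ⊥ := by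
  have hz0 : z ≠ 0 := by
    rintro rfl
    rw [mul_zero] at hzz
    exact zero_ne_one hzz
  have hzi : H.σ z = z⁻¹ := eq_inv_of_mul_eq_one_left hzz
  have hz2 : z - z⁻¹ ≠ 0 := by
    intro h3
    have h4 : z ^ 2 = 1 := by
      have h5 : z = z⁻¹ := sub_eq_zero.1 h3
      have h6 : z * z = 1 := by
        nth_rewrite 2 [h5]
        exact mul_inv_cancel₀ hz0
      rw [pow_two, h6]
    have h5 : orderOf z ∣ q := orderOf_dvd_of_pow_eq_one hz
    have h6 : orderOf z ∣ 2 := orderOf_dvd_of_pow_eq_one h4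
    have h7 : orderOf z ∣ 1 := by
      have h8 : Nat.Coprime q 2 := (Nat.coprime_primes hqp.out Nat.prime_two).2 hq2
      rw [← h8]
      exact Nat.dvd_gcd h5 h6
    exact hz1 (orderOf_eq_one_iff.1 (Nat.dvd_one.1 h7))
  -- the scalar `a`
  obtain ⟨a, ha0, ha⟩ : ∃ a : F, a ≠ 0 ∧ H.σ a = H.ε * a := by
    have hε := H.ε_ne
    by_cases hε1 : 1 + H.ε⁻¹ = 0
    · refine ⟨z - z⁻¹, hz2, ?_⟩
      have h3 : H.ε = -1 := by
        have h4 : H.ε⁻¹ = -1 := by linear_combination hε1
        rw [← inv_inv H.ε, h4, inv_neg, inv_one]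
      rw [map_sub, map_inv₀, hzi, inv_inv, h3]
      ring
    · refine ⟨1 + H.ε⁻¹, hε1, ?_⟩
      rw [map_add, map_one, H.σε', mul_add, mul_one, mul_inv_cancel₀ hε]
      ring
  let i₀ : Fin m := ⟨0, hm⟩
  set u := h.u i₀ with hu
  set w := h.w i₀ with hw
  have huu : H.h u u = 0 := h.uu _ _
  have hww : H.h w w = 0 := h.ww _ _
  have huw : H.h u w = 1 := by rw [hu, hw, h.uw, if_pos rfl]
  have hwu : H.h w u = H.ε := by rw [H.swap u w, huw, map_one, mul_one]
  have hE : ∀ s t : F, H.h (u + s • w) (u + t • w) = H.σ t + H.ε * s := by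
    intro s t
    rw [H.add_left, H.add_right, H.add_right, H.smul_left, H.smul_left, H.smul_right, H.smul_right, huu, hww, huw, hwu]
    ring
  have hn : ∀ s : F, H.σ s = H.ε * s → H.h (u + s • w) (u + s • w) = 2 * (H.ε * s) := by
    intro s hs
    rw [hE, hs]
    ring
  have ha' : H.σ (-a) = H.ε * (-a) := by rw [map_neg, ha, mul_neg]
  have he : H.h (u + a • w) (u + a • w) ≠ 0 := by
    rw [hn a ha]
    exact mul_ne_zero h2 (mul_ne_zero H.ε_ne ha0)
  have he' : H.h (u + (-a) • w) (u + (-a) • w) ≠ 0 := by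
    rw [hn (-a) ha']
    exact mul_ne_zero h2 (mul_ne_zero H.ε_ne (neg_ne_zero.2 ha0))
  have hee : H.h (u + a • w) (u + (-a) • w) = 0 := by
    rw [hE, ha']
    ring
  have hee' : H.h (u + (-a) • w) (u + a • w) = 0 := H.orth_symm hee
  set e := u + a • w with hedef
  set e' := u + (-a) • w with hedef'
  clear_value e e'
  let zu : Fˣ := Units.mk0 z hz0
  have hzu : (zu : F) = z := rfl
  have hzu' : ((zu⁻¹ : Fˣ) : F) = z⁻¹ := by rw [Units.val_inv_eq_inv_val, hzu]
  have hzq : zu ^ q = 1 := Units.ext (by rw [Units.val_pow_eq_pow_val, hzu, hz, Units.val_one])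
  set x : V ≃ₗ[F] V := Rm he zu * Rm he' zu⁻¹ with hx
  have hxq : x ^ q = 1 := by
    rw [hx, (commute_Rm he he' hee zu zu⁻¹).mul_pow, ← map_pow, ← map_pow, inv_pow, hzq, inv_one, map_one, map_one,
      one_mul]
  have hxa : ∀ v, x v = v + (((z - 1) * (H.h e e)⁻¹ * H.h v e) • e + ((z⁻¹ - 1) * (H.h e' e')⁻¹ * H.h v e') • e') := by
    intro v
    rw [hx, LinearEquiv.mul_apply, Rm_apply, Rm_apply, hzu, hzu', H.add_left, H.smul_left, hee']
    module
  refine ⟨x, ?_, hxq, ?_, ?_⟩
  · refine Isom.mul (isom_Rm he ?_) (isom_Rm he' ?_)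
    · rw [hzu]; exact hzz
    · rw [hzu', map_inv₀, hzi, inv_inv, mul_inv_cancel₀ hz0]
  · have h3 : (x : V →ₗ[F] V) = (Rm he zu : V →ₗ[F] V) * (Rm he' zu⁻¹ : V →ₗ[F] V) := rfl
    rw [h3, map_mul, det_Rm, det_Rm, ← Units.val_mul, mul_inv_cancel, Units.val_one]
  · intro hPF
    obtain ⟨W, -, hW, hst, hfr⟩ := PF_top _ _ hPF (fun v hv w _ => by rw [(Submodule.mem_bot F).1 hv, H.zero_left])
      (fun _ _ => Submodule.map_bot _)
    rw [finrank_bot, zero_add, sum_dig] at hfr
    have hSt : ∀ v ∈ W, x v ∈ W := by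
      intro v hv
      have h3 := hst x (Set.mem_singleton x)
      have h4 : (x : V →ₗ[F] V) v ∈ W.map (x : V →ₗ[F] V) := Submodule.mem_map_of_mem hv
      rw [h3] at h4
      exact h4
    -- `W` meets the plane trivially
    have key : ∀ α β : F, α • e + β • e' ∈ W → α = 0 ∧ β = 0 := by
      intro α β hαβ
      have h3 : x (α • e + β • e') = (z * α) • e + (z⁻¹ * β) • e' := by
        rw [hxa, H.add_left, H.smul_left, H.smul_left, hee', H.add_left, H.smul_left, H.smul_left, hee]
        have h4 : (z - 1) * (H.h e e)⁻¹ * (α * H.h e e + β * 0) = (z - 1) * α := by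
          rw [mul_zero, add_zero]
          field_simp
        have h5 : (z⁻¹ - 1) * (H.h e' e')⁻¹ * (α * 0 + β * H.h e' e') = (z⁻¹ - 1) * β := by
          rw [mul_zero, zero_add, mul_assoc, mul_left_comm (H.h e' e')⁻¹, inv_mul_cancel₀ he', mul_one]
        rw [h4, h5]
        module
      have h4 : (z * α) • e + (z⁻¹ * β) • e' ∈ W := by
        rw [← h3]
        exact hSt _ hαβ
      have h5 : ((z - z⁻¹) * α) • e ∈ W := by
        have h6 : ((z - z⁻¹) * α) • e = ((z * α) • e + (z⁻¹ * β) • e') - z⁻¹ • (α • e + β • e') := by module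
        rw [h6]
        exact sub_mem h4 (smul_mem _ _ hαβ)
      have h6 : ((z⁻¹ - z) * β) • e' ∈ W := by
        have h6 : ((z⁻¹ - z) * β) • e' = ((z * α) • e + (z⁻¹ * β) • e') - z • (α • e + β • e') := by module
        rw [h6]
        exact sub_mem h4 (smul_mem _ _ hαβ)
      have hσ : ∀ c : F, c ≠ 0 → H.σ c ≠ 0 := fun c hc => (map_ne_zero H.σ).2 hc
      constructor
      · by_contra hα
        have h7 := hW _ h5 _ h5
        rw [H.smul_left, H.smul_right] at h7
        have h8 : (z - z⁻¹) * α ≠ 0 := mul_ne_zero hz2 hα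
        exact mul_ne_zero h8 (mul_ne_zero (hσ _ h8) he) h7
      · by_contra hβ
        have h7 := hW _ h6 _ h6
        rw [H.smul_left, H.smul_right] at h7
        have h8 : (z⁻¹ - z) * β ≠ 0 := mul_ne_zero (by rw [← neg_sub]; exact neg_ne_zero.2 hz2) hβ
        exact mul_ne_zero h8 (mul_ne_zero (hσ _ h8) he') h7
    -- `W` is orthogonal to the plane
    have horth : ∀ v ∈ W, H.h v e = 0 ∧ H.h v e' = 0 := by
      intro v hv
      have h3 : ((z - 1) * (H.h e e)⁻¹ * H.h v e) • e + ((z⁻¹ - 1) * (H.h e' e')⁻¹ * H.h v e') • e' ∈ W := by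
        have h4 := sub_mem (hSt v hv) hv
        rwa [hxa, add_sub_cancel_left] at h4
      obtain ⟨h4, h5⟩ := key _ _ h3
      have hz1' : z - 1 ≠ 0 := sub_ne_zero.2 hz1
      have hz1'' : z⁻¹ - 1 ≠ 0 := sub_ne_zero.2 fun h6 => hz1 (inv_eq_one.1 h6)
      exact ⟨(mul_eq_zero.1 h4).resolve_left (mul_ne_zero hz1' (inv_ne_zero he)),
        (mul_eq_zero.1 h5).resolve_left (mul_ne_zero hz1'' (inv_ne_zero he'))⟩
    have h2u : (2 : F) • u = e + e' := by rw [hedef, hedef']; module
    have horu : ∀ v ∈ W, H.h v u = 0 := by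
      intro v hv
      obtain ⟨h3, h4⟩ := horth v hv
      have h5 : H.h v ((2 : F) • u) = 0 := by rw [h2u, H.add_right, h3, h4, add_zero]
      rw [H.smul_right] at h5
      exact (mul_eq_zero.1 h5).resolve_left ((map_ne_zero H.σ).2 h2)
    refine false_of_max (fun U hU => ti_le h hU) hW hfr (v := u) (fun v hv => H.orth_symm (horu v hv)) huu fun huW => ?_
    have h3 := (horth u huW).1
    rw [hedef, H.add_right, H.smul_right, huu, huw, zero_add, mul_one] at h3
    exact (map_ne_zero H.σ).2 ha0 h3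

end Fin

universe u v

theorem caseU : CaseU.{u, v} := by
  intro F _ _ V _ _ _ H q m _ h hq2 hm h2 _ z hz hz1 hzz
  exact caseU_aux h hq2 hm h2 hz hz1 hzz

end Cfsg.Agent.H886.PG
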